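import Cfsg.Agent.H950.War.Fit
import Cfsg.Agent.H140.OreO.GLConj

/-!
# S4173 for `PSU_n(q)`: the criterion with two fixed classes (helper367), after
`Cfsg.Agent.H950.War.criterionW`
-/

set_option autoImplicit false
set_option linter.unusedSectionVars false

namespace Cfsg.Agent.H367.TC

open Module Polynomial Cfsg.Agent.H951 Matrix Cfsg.Agent.H98.Ore Cfsg.Agent.H950.War

variable {F V : Type*} [Field F] [Fintype F] [AddCommGroup V] [Module F V] [FiniteDimensional F V]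
  {q : ℕ} {σ : F →+* F} {B : V → V → F}
  {ι : Type} [Fintype ι] [DecidableEq ι] {w w' : ι → V}

/-- `x` is an isometry of determinant one with matrix `Z` on the frame `w, w'` -/
structure Lv (B : V → V → F) (σ : F →+* F) (w w' : ι → V) (Z : Matrix ι ι F) (x : V ≃ₗ[F] V) : Prop where
  mem : x ∈ SGr B
  l : ∀ j, x (w j) = ∑ i, Z i j • w i
  r : ∀ j, x (w' j) = ∑ i, ist σ Z i j • w' i

/-- **the criterion** -/
theorem crit (hB : HS q σ B) {G : V ≃ₗ[F] V} (hGmem : G ∈ SGr B)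
    (hι : finrank F V = 2 * Fintype.card ι ∨ finrank F V = 2 * Fintype.card ι + 1) {P Z h : Matrix ι ι F}
    (hP : Cor B (G : End F V) P) (hPZ : P * Z * h = h * Z) (hh : h.det = 1) (hZ0 : Z.det ≠ 0)
    (hZ : finrank F V = 2 * Fintype.card ι → σ Z.det = Z.det)
    (h1 : IsCoprime Z.charpoly (Z.charpoly.map σ).reverse)
    (h2 : Z.charpoly.eval (σ Z.det * Z.det⁻¹) ≠ 0) :
    ∃ (w w' : ι → V) (x : V ≃ₗ[F] V), Fr B w w' ∧ Lv B σ w w' Z x ∧
      ∃ a ∈ SGr B, ∃ b ∈ SGr B, G = (a * x * a⁻¹) * (b * x⁻¹ * b⁻¹) := by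
  obtain ⟨w, w', hw, hPw⟩ := hP
  obtain ⟨e, he, hn⟩ : ∃ e, e ≤ 1 ∧ finrank F V = 2 * Fintype.card ι + e := by
    rcases hι with h3 | h3
    · exact ⟨0, by norm_num, by omega⟩
    · exact ⟨1, le_rfl, h3⟩
  have hPZ0 : (P * Z).det ≠ 0 := by
    have h3 := congrArg Matrix.det hPZ
    rw [Matrix.det_mul, Matrix.det_mul h, hh, mul_one, one_mul] at h3
    rw [h3]; exact hZ0
  have hh0 : h.det ≠ 0 := by rw [hh]; exact one_ne_zero
  have hGg : ∀ v, B (G v) = B ((G : End F V) v) := fun v => rfl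
  -- the frame for z
  have hfr : Fr B (fun j => ∑ i, Z i j • w i) (fun j => G⁻¹ (∑ i, ist σ (P * Z) i j • w' i)) := by
    have hGG : ∀ v, G (G⁻¹ v) = v := fun v => by
      rw [← LinearEquiv.mul_apply, mul_inv_cancel]; rfl
    have hg := (mem_SGr.1 hGmem).1
    refine ⟨fun i j => ?_, fun i j => ?_, fun i j => ?_⟩
    · rw [sum_left' hB]
      simp only [sum_right' hB]
      simp [hw.ww]
    · rw [← hg, hGG, map_sum]
      simp only [map_smul]
      rw [sum_left' hB]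
      simp only [sum_right' hB]
      have hPw' : ∀ i j, B (G (w j)) (w' i) = P i j := hPw
      simp only [hPw']
      rw [← ist_dual hB hPZ0 i j]
      simp only [Matrix.mul_apply, Finset.sum_mul, Finset.mul_sum]
      rw [Finset.sum_comm]
      refine Finset.sum_congr rfl fun k _ => Finset.sum_congr rfl fun m _ => ?_
      ring
    · rw [← hg, hGG, hGG, sum_left' hB]
      simp only [sum_right' hB]
      simp [hw.ww']
  -- the isometries
  obtain ⟨z₀, hz, hzw, hzw', hzd⟩ := exists_isom hB he hn hw hfr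
  obtain ⟨x, hxm, hxw1, hxw1'⟩ := exists_lev hB he hn hw hZ0 (fun h0 => hZ (by rw [hn, h0, add_zero]))
  obtain ⟨k, hkm, -, hkw1'⟩ := exists_lev hB he hn hw hh0 (fun _ => by rw [hh, map_one])
  have hzd1 : LinearMap.det z₀ = 1 := by
    rcases Nat.le_one_iff_eq_zero_or_eq_one.1 he with h0 | h0
    · have h3 := det_even hB (by rw [hn, h0, add_zero]) hw hz hZ0 hzw
      rw [hZ (by rw [hn, h0, add_zero])] at h3
      exact mul_right_cancel₀ hZ0 (by rw [h3, one_mul])
    · exact hzd h0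
  set z : V ≃ₗ[F] V := LinearEquiv.ofInjectiveEndo z₀ (Isom.inj' hB hz) with hzdef
  have hz0 : (z : V →ₗ[F] V) = z₀ := by ext v; rfl
  have hzm : z ∈ SGr B := mem_SGr.2 ⟨hz, by rw [hz0, hzd1]⟩
  have hzw1 : ∀ j, z (w j) = ∑ i, Z i j • w i := hzw
  have hzw1' : ∀ j, z (w' j) = G⁻¹ (∑ i, ist σ (P * Z) i j • w' i) := hzw'
  have hfw : ∀ j, aeval (x : End F V) Z.charpoly (w j) = 0 := by
    intro j
    rw [aeval_frame (x := (x : End F V)) hxw1, Matrix.aeval_self_charpoly]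
    simp
  obtain ⟨u₁, hu₁, hzu⟩ := conj_same hB he hn hw hxm hzm hZ0 hxw1 hzw1 hfw h1 (fun _ => h2)
  -- the second conjugation
  set y : V ≃ₗ[F] V := k⁻¹ * (G * z) * k with hydef
  have hym : y ∈ SGr B :=
    (SGr B).mul_mem ((SGr B).mul_mem ((SGr B).inv_mem hkm) ((SGr B).mul_mem hGmem hzm)) hkm
  have hcomp : ∀ (X Y : Matrix ι ι F) (a : V ≃ₗ[F] V), (∀ j, a (w' j) = ∑ i, X i j • w' i) →
      ∀ j, a (∑ i, Y i j • w' i) = ∑ i, (X * Y) i j • w' i := by
    intro X Y a ha j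
    rw [map_sum]
    simp only [map_smul, ha, Finset.smul_sum, smul_smul]
    rw [Finset.sum_comm]
    simp only [← Finset.sum_smul]
    refine Finset.sum_congr rfl fun i _ => ?_
    rw [Matrix.mul_apply]
    congr 1
    exact Finset.sum_congr rfl fun k _ => mul_comm _ _
  have hGz : ∀ j, (G * z) (w' j) = ∑ i, ist σ (P * Z) i j • w' i := by
    intro j
    rw [LinearEquiv.mul_apply, hzw1', ← LinearEquiv.mul_apply, mul_inv_cancel]
    rfl
  have hyw' : ∀ j, y (w' j) = ∑ i, ist σ Z i j • w' i := by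
    intro j
    have h3 : k (∑ i, ist σ Z i j • w' i) = (G * z) (k (w' j)) := by
      rw [hcomp _ _ k hkw1', hkw1', hcomp _ _ (G * z) hGz, ← ist_mul, ← ist_mul, hPZ]
    rw [hydef, LinearEquiv.mul_apply, LinearEquiv.mul_apply, ← h3, ← LinearEquiv.mul_apply, inv_mul_cancel]
    rfl
  have hcoeff : Z.charpoly.coeff 0 ≠ 0 := by
    intro h0
    apply hZ0
    rw [Matrix.det_eq_sign_charpoly_coeff, h0, mul_zero]
  have hxinv : (x : End F V) * ((x⁻¹ : V ≃ₗ[F] V) : End F V) = 1 := by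
    ext v
    change x (x⁻¹ v) = v
    rw [← LinearEquiv.mul_apply, mul_inv_cancel]; rfl
  have hxinv' : ((x⁻¹ : V ≃ₗ[F] V) : End F V) * (x : End F V) = 1 := by
    ext v
    change x⁻¹ (x v) = v
    rw [← LinearEquiv.mul_apply, inv_mul_cancel]; rfl
  have hx : Isom B (x : End F V) := (mem_SGr.1 hxm).1
  have hfw' : ∀ j, aeval (x : End F V) (Z.charpoly.map σ).reverse (w' j) = 0 := by
    intro j
    have h3 := aeval_frame (x := (x : End F V)) (w := w') hxw1' (Z.charpoly.map σ).reverse j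
    rw [h3]
    apply Finset.sum_eq_zero
    intro i _
    have h4 : B (aeval (x : End F V) (Z.charpoly.map σ).reverse (w' j)) (w i) = 0 := by
      rw [B_aeval hB (x := (x : End F V)) hx hxinv, map_rev_map hB.ss, aeval_reverse' hxinv', Module.End.mul_apply, hfw, map_zero,
        hB.zero_right]
    rw [h3, sum_left' hB] at h4
    simp only [hw.dual' hB, mul_ite, mul_one, mul_zero, Finset.sum_ite_eq', Finset.mem_univ, if_true] at h4
    rw [h4, zero_smul]
  have hσZ0 : σ Z.det ≠ 0 := (map_ne_zero σ).2 hZ0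
  have hist0 : (ist σ Z).det ≠ 0 := by
    rw [det_ist, map_inv₀]
    exact inv_ne_zero hσZ0
  obtain ⟨u₂, hu₂, hyu⟩ := conj_same hB he hn (hw.swap hB) hxm hym hist0 hxw1' hyw' hfw' (by
    rw [map_rev_map hB.ss, reverse_reverse' hcoeff]
    exact h1.symm) (by
    intro _ h3
    apply h2
    rw [det_ist, map_inv₀, inv_inv, map_inv₀, hB.ss] at h3
    set c := σ Z.det * Z.det⁻¹ with hcdef
    have hc0 : c ≠ 0 := mul_ne_zero hσZ0 (inv_ne_zero hZ0)
    have h4 : (Z.det)⁻¹ * σ Z.det = c := mul_comm _ _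
    rw [h4] at h3
    let _ : Invertible c⁻¹ := invertibleOfNonzero (inv_ne_zero hc0)
    have h5 := eval₂_reverse_eq_zero_iff (RingHom.id F) (c⁻¹) (Z.charpoly.map σ)
    have h6 : (⅟(c⁻¹) : F) = c := by rw [invOf_eq_inv, inv_inv]
    rw [h6, ← eval, h3, eq_self_iff_true, true_iff, ← eval, eval_map] at h5
    have h7 : c⁻¹ = σ c := by
      rw [hcdef, map_mul, map_inv₀, hB.ss, mul_inv, inv_inv, mul_comm]
    rw [h7, eval₂_at_apply] at h5
    exact (map_eq_zero σ).1 h5)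
  -- assemble
  refine ⟨w, w', x, hw, ⟨hxm, hxw1, hxw1'⟩, k * u₂, (SGr B).mul_mem hkm hu₂, u₁, hu₁, ?_⟩
  have h3 : G * z = k * y * k⁻¹ := by rw [hydef]; group
  have h5 : G = (k * y * k⁻¹) * z⁻¹ := by rw [← h3]; group
  rw [h5, hyu, hzu]
  group

/-! ### the Levi elements are conjugate -/

theorem Lv.reindex {κ : Type} [Fintype κ] [DecidableEq κ] (φ : κ ≃ ι) (hw : Fr B w w')
    {Z : Matrix ι ι F} {x : V ≃ₗ[F] V} (h : Lv B σ w w' Z x) :
    Fr B (fun i => w (φ i)) (fun i => w' (φ i)) ∧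
      Lv B σ (fun i => w (φ i)) (fun i => w' (φ i)) (Z.submatrix φ φ) x := by
  have e1 : ist σ (Z.submatrix φ φ) = (ist σ Z).submatrix φ φ := by
    ext i j
    rw [ist_apply, Matrix.inv_submatrix_equiv, Matrix.submatrix_apply, Matrix.submatrix_apply, ist_apply]
  refine ⟨⟨fun i j => hw.ww _ _, fun i j => ?_, fun i j => hw.ww' _ _⟩, ⟨h.mem, fun j => ?_, fun j => ?_⟩⟩
  · rw [hw.dual]
    by_cases hij : i = j
    · rw [if_pos hij, if_pos (by rw [hij])]
    · rw [if_neg hij, if_neg (fun h => hij (φ.injective h))]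
  · rw [h.l]
    exact (φ.sum_comp (fun i => Z i (φ j) • w i)).symm
  · rw [h.r, e1]
    exact (φ.sum_comp (fun i => ist σ Z i (φ j) • w' i)).symm

/-- Hilbert 90 -/
theorem exists_h90 (hB : HS q σ B) {μ : F} (hμ : μ * σ μ = 1) : ∃ s : F, s ≠ 0 ∧ s * μ = σ s := by
  by_cases h : 1 + σ μ = 0
  · obtain ⟨s, hs0, hs⟩ := LieClassical.HermBasic.exists_trace_zero_ne hB.card
    have h1 : σ μ = -1 := by linear_combination h
    have h2 : μ = -1 := by
      have := congrArg σ h1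
      rwa [hB.ss, map_neg, map_one] at this
    refine ⟨s, hs0, ?_⟩
    rw [h2, hB.sig]
    linear_combination -hs
  · refine ⟨1 + σ μ, h, ?_⟩
    rw [map_add, map_one, hB.ss]
    linear_combination hμ

theorem sum_comp_frame {ι : Type} [Fintype ι] {w : ι → V} {x : V ≃ₗ[F] V} {X : Matrix ι ι F}
    (hx : ∀ j, x (w j) = ∑ i, X i j • w i) (Y : Matrix ι ι F) (j : ι) :
    x (∑ i, Y i j • w i) = ∑ i, (X * Y) i j • w i := by
  rw [map_sum]
  simp only [map_smul, hx, Finset.smul_sum, smul_smul]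
  rw [Finset.sum_comm]
  simp only [← Finset.sum_smul]
  refine Finset.sum_congr rfl fun i _ => ?_
  rw [Matrix.mul_apply]
  congr 1
  exact Finset.sum_congr rfl fun k _ => mul_comm _ _

/-- **two Levi elements with the same irreducible characteristic polynomial are conjugate** -/
theorem lv_conj (hB : HS q σ B) {m e : ℕ} (he : e ≤ 1) (hn : finrank F V = 2 * m + e)
    {w w' v v' : Fin m → V} (hw : Fr B w w') (hv : Fr B v v') {Z Z₁ : Matrix (Fin m) (Fin m) F}
    {x x₁ : V ≃ₗ[F] V} (hx : Lv B σ w w' Z x) (hx₁ : Lv B σ v v' Z₁ x₁) (hf : Irreducible Z₁.charpoly)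
    (hZ : Z.charpoly = Z₁.charpoly) (hd : Z.det ≠ 0) (hd₁ : Z₁.det ≠ 0) : ∃ T ∈ SGr B, x = T * x₁ * T⁻¹ := by
  have hn' : finrank F V = 2 * Fintype.card (Fin m) + e := by rw [Fintype.card_fin, hn]
  -- an isometry between the frames
  obtain ⟨S₀, hS, hSw, hSw', hSd⟩ := exists_isom hB he hn' hv hw
  obtain ⟨μ, hμ⟩ : ∃ μ, μ = LinearMap.det S₀ := ⟨_, rfl⟩
  have hμn : μ * σ μ = 1 := by rw [hμ]; exact Isom.det_norm hB hS
  obtain ⟨s, hs0, hs⟩ := exists_h90 hB hμn
  obtain ⟨K, hK, hKd⟩ := Cfsg.Agent.H140.OreO.exists_conj_matrix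
    (Matrix.GeneralLinearGroup.mkOfDetNeZero Z hd) (Matrix.GeneralLinearGroup.mkOfDetNeZero Z₁ hd₁) hZ hf s hs0
  have hK0 : (K : Matrix (Fin m) (Fin m) F).det ≠ 0 := by rw [hKd]; exact hs0
  have hKZ : Z * (K : Matrix (Fin m) (Fin m) F) = (K : Matrix (Fin m) (Fin m) F) * Z₁ := by
    have h1 := congrArg (fun A : GL (Fin m) F => ((A * K : GL (Fin m) F) : Matrix (Fin m) (Fin m) F)) hK
    simp only [inv_mul_cancel_right] at h1
    rw [Units.val_mul, Units.val_mul] at h1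
    exact h1
  -- the isometry
  obtain ⟨T₀, hT, hTw, hTw', hTd⟩ := exists_isom hB he hn' hv (hw.trans hB (ist_dual hB hK0))
  have hSi := Isom.inj' hB hS
  have hTi := Isom.inj' hB hT
  set S : V ≃ₗ[F] V := LinearEquiv.ofInjectiveEndo S₀ hSi with hSdef
  set T : V ≃ₗ[F] V := LinearEquiv.ofInjectiveEndo T₀ hTi with hTdef
  have hS0 : (S : V →ₗ[F] V) = S₀ := by ext v; rfl
  have hT0 : (T : V →ₗ[F] V) = T₀ := by ext v; rfl
  have hTd1 : LinearMap.det T₀ = 1 := by
    rcases Nat.le_one_iff_eq_zero_or_eq_one.1 he with h0 | h0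
    · -- even dimension
      have hSS : ∀ v, S (S⁻¹ v) = v := fun v => by rw [← LinearEquiv.mul_apply, mul_inv_cancel]; rfl
      have hSS' : ∀ v, S⁻¹ (S v) = v := fun v => by rw [← LinearEquiv.mul_apply, inv_mul_cancel]; rfl
      have hL : Isom B ((T * S⁻¹ : V ≃ₗ[F] V) : End F V) := by
        intro a b
        change B (T₀ (S⁻¹ a)) (T₀ (S⁻¹ b)) = B a b
        rw [hT, ← hS]
        change B (S (S⁻¹ a)) (S (S⁻¹ b)) = B a b
        rw [hSS, hSS]
      have h3 := det_even hB (by rw [hn', h0, add_zero]) hw hL hK0 (fun j => by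
        change T₀ (S⁻¹ (w j)) = _
        have h4 : S⁻¹ (w j) = v j := by
          have : w j = S (v j) := (hSw j).symm
          rw [this, hSS']
        rw [h4, hTw])
      rw [hKd] at h3
      have h5 : LinearMap.det ((T * S⁻¹ : V ≃ₗ[F] V) : End F V) * μ = LinearMap.det T₀ := by
        rw [hμ, ← hS0, ← hT0]
        change LinearMap.det ((T * S⁻¹ : V ≃ₗ[F] V) : V →ₗ[F] V) * LinearMap.det (S : V →ₗ[F] V) = _
        rw [← LinearMap.det_comp]
        congr 1
        ext v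
        change T (S⁻¹ (S v)) = T v
        rw [hSS']
      have hσs : σ s ≠ 0 := (map_ne_zero σ).2 hs0
      apply mul_right_cancel₀ hσs
      rw [one_mul]
      calc LinearMap.det T₀ * σ s
          = (LinearMap.det ((T * S⁻¹ : V ≃ₗ[F] V) : End F V) * σ s) * μ := by rw [← h5]; ring
        _ = σ s := by rw [h3, hs]
    · exact hTd h0
  have hTm : T ∈ SGr B := mem_SGr.2 ⟨hT, by rw [hT0, hTd1]⟩
  -- the two elements agree on the frame
  have hone : x₁⁻¹ * (T⁻¹ * x * T) = 1 := by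
    have hTT : ∀ v, T⁻¹ (T v) = v := fun v => by rw [← LinearEquiv.mul_apply, inv_mul_cancel]; rfl
    have hxx : ∀ v, x₁⁻¹ (x₁ v) = v := fun v => by rw [← LinearEquiv.mul_apply, inv_mul_cancel]; rfl
    have key : ∀ u : V, x (T u) = T (x₁ u) → (x₁⁻¹ * (T⁻¹ * x * T)) u = u := by
      intro u hu
      change x₁⁻¹ (T⁻¹ (x (T u))) = u
      rw [hu, hTT, hxx]
    refine fix_one hB he hn' hv ((SGr B).mul_mem ((SGr B).inv_mem hx₁.mem)
      ((SGr B).mul_mem ((SGr B).mul_mem ((SGr B).inv_mem hTm) hx.mem) hTm)) (fun j => key _ ?_) (fun j => key _ ?_)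
    · have e1 : ∀ j, T (v j) = ∑ i, (K : Matrix (Fin m) (Fin m) F) i j • w i := hTw
      rw [e1, sum_comp_frame hx.l, hKZ, hx₁.l, map_sum]
      simp only [map_smul, e1, Finset.smul_sum, smul_smul]
      rw [Finset.sum_comm]
      simp only [← Finset.sum_smul]
      refine Finset.sum_congr rfl fun i _ => ?_
      rw [Matrix.mul_apply]
      congr 1
      exact Finset.sum_congr rfl fun k _ => mul_comm _ _
    · have e1 : ∀ j, T (v' j) = ∑ i, ist σ (K : Matrix (Fin m) (Fin m) F) i j • w' i := hTw'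
      rw [e1, sum_comp_frame hx.r, ← ist_mul, hKZ, ist_mul, hx₁.r, map_sum]
      simp only [map_smul, e1, Finset.smul_sum, smul_smul]
      rw [Finset.sum_comm]
      simp only [← Finset.sum_smul]
      refine Finset.sum_congr rfl fun i _ => ?_
      rw [Matrix.mul_apply]
      congr 1
      exact Finset.sum_congr rfl fun k _ => mul_comm _ _
  refine ⟨T, hTm, ?_⟩
  have h1 : T⁻¹ * x * T = x₁ := by
    have := inv_mul_eq_one.1 hone
    exact this.symm
  rw [← h1]
  group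

end Cfsg.Agent.H367.TC
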