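import Cfsg.Agent.H367.TC.Crit
import Cfsg.Agent.H950.War.Pass
import Cfsg.Agent.H43.W53.Three

/-!
# S4173 for `PSU_n(q)`, `n ≥ 3`: two fixed classes (helper367)

* `TwoU B` : two classes of the special unitary group whose product contains every non-scalar element.
* `two_four` : `n ≥ 4`; `two_three` : `n = 3`, `q ≥ 3`.
* `tc_psu`.
-/

set_option autoImplicit false
set_option linter.unusedSectionVars false

namespace Cfsg.Agent.H367.TC

open Module Polynomial Cfsg.Agent.H951 Matrix Cfsg.Agent.H98.Ore Cfsg.Agent.H950.War Cfsg.Agent.H951.OreU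
  Cfsg.Agent.H984.Ore

universe u v

section

variable {F : Type u} {V : Type v} [Field F] [Fintype F] [AddCommGroup V] [Module F V] [FiniteDimensional F V]
  {q : ℕ} {σ : F →+* F} {B : V → V → F}

/-- two fixed classes for the non-scalar isometries of determinant one -/
def TwoU (B : V → V → F) : Prop :=
  ∃ x₀ ∈ SGr B, ∃ y₀ ∈ SGr B, ∀ g ∈ SGr B, (∀ c : F, (g : End F V) ≠ c • (1 : End F V)) →
    ∃ u ∈ SGr B, ∃ v ∈ SGr B, g = (u * x₀ * u⁻¹) * (v * y₀ * v⁻¹)

theorem two_of_fit (hB : HS q σ B) {m : ℕ} (hn : finrank F V = 2 * m ∨ finrank F V = 2 * m + 1) {f : F[X]}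
    (hf : Irreducible f) (hfm : f.Monic) (hfd : f.natDegree = m) (hf0 : f.coeff 0 ≠ 0)
    (hσ : finrank F V = 2 * m → σ (f.coeff 0) = f.coeff 0) (hcop : IsCoprime f (f.map σ).reverse)
    (hev : ∀ d : F, d = (-1) ^ m * f.coeff 0 → f.eval (σ d * d⁻¹) ≠ 0)
    (H : ∀ g ∈ SGr B, (∀ c : F, (g : End F V) ≠ c • (1 : End F V)) → Fit B f g) : TwoU B := by
  obtain ⟨e, he, hne⟩ : ∃ e, e ≤ 1 ∧ finrank F V = 2 * m + e := by
    rcases hn with h3 | h3
    · exact ⟨0, by norm_num, by omega⟩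
    · exact ⟨1, le_rfl, h3⟩
  have hdetZ : ∀ {ι : Type} [Fintype ι] [DecidableEq ι] (Z : Matrix ι ι F), Fintype.card ι = m → Z.charpoly = f →
      Z.det = (-1) ^ m * f.coeff 0 := by
    intro ι _ _ Z hc hZ
    rw [Matrix.det_eq_sign_charpoly_coeff, hZ, hc]
  have hd0 : (-1 : F) ^ m * f.coeff 0 ≠ 0 := mul_ne_zero (pow_ne_zero _ (neg_ne_zero.2 one_ne_zero)) hf0
  have hσd : finrank F V = 2 * m → σ ((-1 : F) ^ m * f.coeff 0) = (-1) ^ m * f.coeff 0 := by
    intro h
    rw [map_mul, hσ h, map_pow, map_neg, map_one]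
  -- the fixed element
  obtain ⟨v, v', hv⟩ := exists_fr m hB (by omega)
  obtain ⟨Z₁, hZ₁⟩ := exists_matrix (ι := Fin m) hfm (by rw [hfd, Fintype.card_fin])
  have hne' : finrank F V = 2 * Fintype.card (Fin m) + e := by rw [Fintype.card_fin, hne]
  have hdZ₁ := hdetZ Z₁ (Fintype.card_fin m) hZ₁
  obtain ⟨x₁, hx₁, hx₁l, hx₁r⟩ := exists_lev hB he hne' hv (Z := Z₁) (by rw [hdZ₁]; exact hd0) (fun h0 => by
    rw [hdZ₁]; exact hσd (by rw [hne, h0, add_zero]))
  refine ⟨x₁, hx₁, x₁⁻¹, (SGr B).inv_mem hx₁, fun g hg hs => ?_⟩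
  obtain ⟨ι, _, _, P, Z, h, hcard, hcor, hZ, hh, hPZ⟩ := H g hg hs
  have hιm : Fintype.card ι = m := by omega
  have hdZ := hdetZ Z hιm hZ
  obtain ⟨w, w', x, hw, hx, a, ha, b, hb, hgab⟩ := crit hB hg hcard hcor hPZ hh (by rw [hdZ]; exact hd0)
    (fun h0 => by rw [hdZ]; exact hσd (by rw [h0, hιm])) (by rw [hZ]; exact hcop)
    (by rw [hZ]; exact hev _ hdZ)
  obtain ⟨hw2, hx2⟩ := hx.reindex (Fintype.equivFinOfCardEq hιm).symm hw
  obtain ⟨T, hT, hxT⟩ := lv_conj hB he hne hw2 hv hx2 ⟨hx₁, hx₁l, hx₁r⟩ (by rw [hZ₁]; exact hf) (by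
    rw [hZ₁, ← hZ]
    exact Matrix.charpoly_reindex (Fintype.equivFinOfCardEq hιm) Z) (by
    rw [Matrix.det_submatrix_equiv_self, hdZ]; exact hd0) (by rw [hdZ₁]; exact hd0)
  refine ⟨a * T, (SGr B).mul_mem ha hT, b * T, (SGr B).mul_mem hb hT, ?_⟩
  rw [hgab, hxT]
  group

/-- the order of a matrix with irreducible characteristic polynomial -/
theorem pow_of_irr {f : F[X]} (hf : Irreducible f) (hf0 : f.coeff 0 ≠ 0) {ι : Type} [Fintype ι] [DecidableEq ι]
    {Z : Matrix ι ι F} (hZ : Z.charpoly = f) : Z ^ (Fintype.card F ^ Fintype.card ι - 1) = 1 := by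
  classical
  have : Fact (Irreducible f) := ⟨hf⟩
  have hd : f.natDegree = Fintype.card ι := by rw [← hZ, Matrix.charpoly_natDegree_eq_dim]
  have hpb := AdjoinRoot.powerBasis hf.ne_zero
  have : Module.Finite F (AdjoinRoot f) := (AdjoinRoot.powerBasis hf.ne_zero).finite
  have : Finite (AdjoinRoot f) := Module.finite_of_finite F
  have := Fintype.ofFinite (AdjoinRoot f)
  have hcard : Fintype.card (AdjoinRoot f) = Fintype.card F ^ Fintype.card ι := by
    rw [Module.card_eq_pow_finrank (K := F), (AdjoinRoot.powerBasis hf.ne_zero).finrank,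
      AdjoinRoot.powerBasis_dim, hd]
  have h1 : (AdjoinRoot.root f) ^ (Fintype.card F ^ Fintype.card ι) = AdjoinRoot.root f := by
    rw [← hcard]; exact FiniteField.pow_card _
  have h2 : f ∣ X ^ (Fintype.card F ^ Fintype.card ι) - X := by
    rw [← AdjoinRoot.mk_eq_zero, map_sub, map_pow, AdjoinRoot.mk_X, h1, sub_self]
  obtain ⟨g, hg⟩ := h2
  have h3 : Z ^ (Fintype.card F ^ Fintype.card ι) = Z := by
    have h4 := congrArg (aeval Z) hg
    rw [map_sub, map_pow, aeval_X, map_mul, ← hZ, Matrix.aeval_self_charpoly, zero_mul, sub_eq_zero] at h4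
    exact h4
  have hdet : IsUnit Z.det := by
    rw [isUnit_iff_ne_zero, Matrix.det_eq_sign_charpoly_coeff, hZ]
    exact mul_ne_zero (pow_ne_zero _ (neg_ne_zero.2 one_ne_zero)) hf0
  have hpos : 0 < Fintype.card F ^ Fintype.card ι := Nat.pow_pos Fintype.card_pos
  obtain ⟨r, hr⟩ : ∃ r, Fintype.card F ^ Fintype.card ι = r + 1 :=
    ⟨Fintype.card F ^ Fintype.card ι - 1, by omega⟩
  rw [hr, Nat.add_sub_cancel]
  rw [hr, pow_succ] at h3
  calc Z ^ r = Z ^ r * (Z * Z⁻¹) := by rw [Matrix.mul_nonsing_inv Z hdet, mul_one]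
    _ = (Z ^ r * Z) * Z⁻¹ := by rw [mul_assoc]
    _ = 1 := by rw [h3, Matrix.mul_nonsing_inv Z hdet]

/-- the polynomials exist for `e = 1` -/
theorem exists_pw_one (hF : Fintype.card F = q ^ 2) (σ : F →+* F) (hσ : ∀ a, σ a = a ^ q) {m : ℕ} (hm : 2 ≤ m) :
    ∃ f : F[X], PW q σ m 1 f := by
  obtain ⟨f, h1, h2, h3, h4, h5, h6⟩ := Cfsg.Agent.H117.OrePoly.exists_poly hF σ hσ hm
  have hc0 : f.coeff 0 ≠ 0 := by
    intro h0
    have h7 : f.eval 0 = 0 := by rw [← coeff_zero_eq_eval_zero, h0]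
    have h8 := Polynomial.degree_eq_one_of_irreducible_of_root h1 h7
    have h9 : f.natDegree = 1 := natDegree_eq_of_degree_eq_some h8
    omega
  refine ⟨f, h1, h2, h3, h4, h5, fun l hl _ hl1 => h6 l hl hl1, fun {ι} _ _ Z hZ => ⟨Z, (pow_one Z).symm, ?_, ?_⟩⟩
  · rw [Matrix.det_eq_sign_charpoly_coeff, hZ, map_mul, h4, map_pow, map_neg, map_one]
  · have hd : f.natDegree = Fintype.card ι := by rw [← hZ, Matrix.charpoly_natDegree_eq_dim]
    have h7 := pow_of_irr h1 hc0 hZ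
    rw [hF, ← hd, h3, ← pow_mul] at h7
    exact h7

theorem two_four (hB : HS q σ B) (hn : 4 ≤ finrank F V) : TwoU B := by
  obtain ⟨m, hm⟩ := Nat.even_or_odd' (finrank F V)
  have hm2 : 2 ≤ m := by omega
  obtain ⟨f, hf⟩ := exists_pw_one hB.card σ hB.sig hm2
  have h0 : f.coeff 0 ≠ 0 := by
    rw [coeff_zero_eq_eval_zero]
    exact eval_ne hf hm2 0
  refine two_of_fit hB hm hf.irr hf.monic hf.deg h0 (fun _ => hf.c0) hf.cop (fun d _ => eval_ne hf hm2 _)
    fun g hgS hs => ?_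
  obtain ⟨hg, hdet⟩ := mem_SGr.1 hgS
  have hg : Isom B (g : End F V) := hg
  by_cases h1 : ∃ c : F, finrank F (LinearMap.range ((g : End F V) - c • (1 : End F V))) = 1
  · obtain ⟨c, hc⟩ := h1
    exact fit_rank_one hB hm2 hm hf hgS hc
  push Not at h1
  have hr : ∀ c : F, 2 ≤ finrank F (LinearMap.range ((g : End F V) - c • (1 : End F V))) := by
    intro c
    by_contra hcon
    have h5 : finrank F (LinearMap.range ((g : End F V) - c • (1 : End F V))) = 0 := by
      have := h1 c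
      omega
    have h6 := Submodule.finrank_eq_zero.1 h5
    rw [LinearMap.range_eq_bot, sub_eq_zero] at h6
    exact hs c h6
  apply fit_of_good hB hm2 hm hf
  obtain ⟨w, U, g₁, b, hst, h2 | ⟨h2, c, hc1, hc2⟩⟩ := Cfsg.Agent.H954.OreB.exists_good_step hB hg hdet hn hr
  · rcases hm with hm | hm
    · exact Cfsg.Agent.H801.Ore.good_even hB hg hdet hm hst h2
    · exact Cfsg.Agent.H984.OreFinal.good_odd hB hg hm hst h2
  · exact good_four hB hg hdet h2 hst hc1 hc2

theorem two_three (hB : HS q σ B) (hn : finrank F V = 3) (hq : 3 ≤ q) : TwoU B := by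
  -- the generator
  obtain ⟨η, hη⟩ := IsCyclic.exists_generator (α := Fˣ)
  have hηord : orderOf η = q ^ 2 - 1 := by
    rw [orderOf_eq_card_of_forall_mem_zpowers hη, Nat.card_units, Nat.card_eq_fintype_card, hB.card]
  obtain ⟨x, hx0⟩ : ∃ x : F, x = (η : F) := ⟨_, rfl⟩
  have hord : ∀ k : ℕ, x ^ k = 1 → q ^ 2 - 1 ∣ k := by
    intro k hk
    rw [← hηord]
    apply orderOf_dvd_of_pow_eq_one
    apply Units.ext
    rw [Units.val_pow_eq_pow_val, ← hx0, hk, Units.val_one]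
  have hxne : x ≠ 0 := by rw [hx0]; exact η.ne_zero
  have hsq : q * 3 ≤ q ^ 2 := by rw [pow_two]; exact Nat.mul_le_mul_left _ hq
  have hx1 : x ^ (q + 1) ≠ 1 := by
    intro h1
    have h2 := Nat.le_of_dvd (by omega) (hord _ h1)
    omega
  have hx2 : x ^ q ≠ x ^ 2 := by
    intro h1
    have h2 : x ^ (q - 2) = 1 := by
      apply mul_right_cancel₀ (pow_ne_zero 2 hxne)
      rw [← pow_add, one_mul, Nat.sub_add_cancel (by omega), h1]
    have h3 := Nat.le_of_dvd (by omega) (hord _ h2)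
    omega
  have hσx : σ x ≠ 0 := (map_ne_zero σ).2 hxne
  refine two_of_fit hB (m := 1) (f := X - C x) (Or.inr (by rw [hn])) (irreducible_X_sub_C x) (monic_X_sub_C x)
    (natDegree_X_sub_C x) ?_ (fun h => by omega) ?_ (fun d hd => ?_) fun g hg hs => ?_
  · rw [coeff_sub, coeff_X_zero, coeff_C_zero, zero_sub]
    exact neg_ne_zero.2 hxne
  · have h1 : ((X - C x : F[X]).map σ).reverse = C (-σ x) * (X - C (σ x)⁻¹) := by
      rw [Polynomial.map_sub, Polynomial.map_X, Polynomial.map_C]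
      ext i
      rw [Polynomial.coeff_reverse, Polynomial.natDegree_X_sub_C, Polynomial.coeff_C_mul, Polynomial.coeff_sub,
        Polynomial.coeff_sub]
      rcases i with _ | _ | i
      · rw [Polynomial.revAt_le (by omega)]
        simp [hσx]
      · rw [Polynomial.revAt_le (by omega)]
        simp
      · rw [Polynomial.revAt_eq_self_of_lt (by omega)]
        simp [Polynomial.coeff_X]
    rw [h1]
    have h2 : IsUnit (C (-σ x) : F[X]) := Polynomial.isUnit_C.2 (isUnit_iff_ne_zero.2 (neg_ne_zero.2 hσx))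
    rw [isCoprime_mul_unit_left_right h2]
    apply Polynomial.isCoprime_X_sub_C_of_isUnit_sub
    rw [isUnit_iff_ne_zero, sub_ne_zero]
    intro h3
    apply hx1
    calc x ^ (q + 1) = σ x * x := by rw [pow_succ, ← hB.sig]
      _ = σ x * (σ x)⁻¹ := by rw [← h3]
      _ = 1 := mul_inv_cancel₀ hσx
  · have hdx : d = x := by
      rw [hd, coeff_sub, coeff_X_zero, coeff_C_zero]; ring
    rw [hdx, Polynomial.eval_sub, Polynomial.eval_X, Polynomial.eval_C, hB.sig]
    intro h1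
    apply hx2
    have h2 : x ^ q * x⁻¹ = x := sub_eq_zero.1 h1
    calc x ^ q = x ^ q * x⁻¹ * x := by rw [inv_mul_cancel_right₀ hxne]
      _ = x ^ 2 := by rw [h2, pow_two]
  · have hgi : Isom B (g : End F V) := (mem_SGr.1 hg).1
    obtain ⟨w, hw, hgw⟩ := exists_typeI hB hgi hs
    obtain ⟨U, g₁, b, h⟩ := exists_step hB hgi hw hgw
    obtain ⟨hU, hfr⟩ := Step.hs hB hgi h
    obtain ⟨R, -, hR⟩ := Cfsg.Agent.H24.Ore.cor_step_odd hB hgi h (κ := Empty) (P₁ := 0)
      (by rw [Fintype.card_empty]; omega)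
      ⟨Empty.elim, Empty.elim, ⟨fun i => i.elim, fun i => i.elim, fun i => i.elim⟩, fun i => i.elim⟩ 1
    have hP : Matrix.fromBlocks (Matrix.of fun (_ _ : Unit) => (1 : F)) R 0 (0 : Matrix Empty Empty F) = 1 := by
      ext i j
      rcases i with i | i
      · rcases j with j | j
        · rw [Matrix.fromBlocks_apply₁₁, Subsingleton.elim j i, Matrix.one_apply_eq]
          rfl
        · exact j.elim
      · exact i.elim
    rw [hP] at hR
    have hcp : (Matrix.diagonal (fun _ : Unit ⊕ Empty => x)).charpoly = X - C x := by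
      rw [Matrix.charpoly_diagonal]; simp
    exact ⟨Unit ⊕ Empty, inferInstance, inferInstance, 1, Matrix.diagonal (fun _ => x), 1,
      Or.inr (by rw [hn]; rfl), hR, hcp, Matrix.det_one, by rw [one_mul, mul_one]⟩

end

/-! ### passage to `PSU` -/

section

open Cfsg
open Cfsg.Agent.ClassicalGeometry.PSUAutBasic (pr pr_surjective pr_eq_one_iff)

variable {F : Type u} [Field F] [Fintype F] {q : ℕ}

theorem tc_of_two {n : ℕ} (h : TwoU (hermForm n F q)) : ∃ a b : PSU n F q, ∀ g : PSU n F q, g ≠ 1 →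
    ∃ u v : PSU n F q, g = (u * a * u⁻¹) * (v * b * v⁻¹) := by
  obtain ⟨x₀, hx₀, y₀, hy₀, h⟩ := h
  obtain ⟨a, rfl⟩ := exists_psi hx₀
  obtain ⟨b, rfl⟩ := exists_psi hy₀
  refine ⟨pr n F q a, pr n F q b, fun t ht => ?_⟩
  obtain ⟨g, rfl⟩ := pr_surjective t
  have hs : ∀ c : F, ((psi n F q g : (Fin n → F) ≃ₗ[F] (Fin n → F)) : End F (Fin n → F)) ≠
      c • (1 : End F (Fin n → F)) := by
    intro c hc
    exact ht (pr_eq_one_iff.2 (mem_center_of_scalar hc))
  obtain ⟨u, hu, v, hv, e⟩ := h _ (psi_mem g) hs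
  obtain ⟨u, rfl⟩ := exists_psi hu
  obtain ⟨v, rfl⟩ := exists_psi hv
  have e2 : g = (u * a * u⁻¹) * (v * b * v⁻¹) := by
    apply psi_injective (F := F) (q := q) n
    rw [e]
    simp only [map_mul, map_inv]
  refine ⟨pr n F q u, pr n F q v, ?_⟩
  conv_lhs => rw [e2]
  simp only [map_mul, map_inv]

/-- **the row `PSU_n(q)`, `n ≥ 3`, `(n, q) ≠ (3, 2)`** -/
theorem tc_psu (hF : Fintype.card F = q ^ 2) {n : ℕ} (hn : 3 ≤ n) (hex : ¬ (n = 3 ∧ q = 2)) :
    ∃ a b : PSU n F q, ∀ g : PSU n F q, g ≠ 1 → ∃ u v : PSU n F q, g = (u * a * u⁻¹) * (v * b * v⁻¹) := by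
  have hB := hs_herm hF n
  have hq := LieClassical.HermBasic.two_le hF
  have hfr : finrank F (Fin n → F) = n := Module.finrank_fin_fun F
  apply tc_of_two
  rcases hn.eq_or_lt with h3 | h4
  · exact two_three hB (by rw [hfr, h3]) (by
      rcases hq.eq_or_lt with h2 | h2
      · exact absurd ⟨h3.symm, h2.symm⟩ hex
      · exact h2)
  · exact two_four hB (by rw [hfr]; exact h4)

end

end Cfsg.Agent.H367.TC
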